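import Cfsg.Agent.Linear.Transvection
import Cfsg.Agent.Linear.Orders
import Cfsg.Agent.Recog.Icosahedral
import Cfsg.Agent.SmallPSL.Small

/-!
The icosahedral subgroups of `PSL₂(11)`: two classes of eleven, two-transitive coset actions.
-/

set_option autoImplicit false
set_option linter.unusedSectionVars false
set_option maxRecDepth 100000

namespace Cfsg.Agent.SmallPSL.Eleven

open Matrix
open scoped MatrixGroups Pointwise

attribute [local instance] fact_eleven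

/-- A (2,3,5) pair generates an icosahedral group. -/
theorem iso_of_triple {G : Type*} [Group G] {s c : G} (hs : s * s = 1) (hc : c ^ 3 = 1)
    (hsc : (s * c) ^ 5 = 1) (h1 : c ≠ 1) :
    Nonempty (Subgroup.closure ({s, c} : Set G) ≃* alternatingGroup (Fin 5)) := by
  obtain ⟨e⟩ := Recog.Icosahedral.presented_alt_iso
  have hs' : s⁻¹ = s := inv_eq_of_mul_eq_one_right hs
  have hrel : ∀ w ∈ Recog.Icosahedral.altRels, FreeGroup.lift ![c, c⁻¹ * s] w = 1 := by
    simp only [Recog.Icosahedral.altRels, Set.mem_insert_iff, Set.mem_singleton_iff, forall_eq_or_imp,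
      forall_eq, map_pow, map_mul, FreeGroup.lift_apply_of, Matrix.cons_val_zero, Matrix.cons_val_one]
    refine ⟨hc, ?_, ?_⟩
    · rw [show c⁻¹ * s = (s * c)⁻¹ by rw [_root_.mul_inv_rev, hs'], inv_pow, hsc, inv_one]
    · rw [mul_inv_cancel_left, sq, hs]
  let f := PresentedGroup.toGroup hrel
  have hf0 : f (PresentedGroup.of 0) = c := PresentedGroup.toGroup.of hrel
  have hf1 : f (PresentedGroup.of 1) = c⁻¹ * s := PresentedGroup.toGroup.of hrel
  have hr : f.range = Subgroup.closure ({s, c} : Set G) := by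
    refine le_antisymm ?_ ?_
    · rw [MonoidHom.range_eq_map, ← PresentedGroup.closure_range_of, MonoidHom.map_closure, Subgroup.closure_le]
      rintro _ ⟨_, ⟨i, rfl⟩, rfl⟩
      fin_cases i
      · exact hf0 ▸ Subgroup.subset_closure (by simp)
      · exact hf1 ▸ mul_mem (inv_mem (Subgroup.subset_closure (by simp))) (Subgroup.subset_closure (by simp))
    · rw [Subgroup.closure_le]
      rintro x (rfl | rfl)
      · exact ⟨PresentedGroup.of 0 * PresentedGroup.of 1, by rw [map_mul, hf0, hf1, mul_inv_cancel_left]⟩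
      · exact ⟨_, hf0⟩
  haveI hA : IsSimpleGroup (alternatingGroup (Fin 5)) := alternatingGroup.isSimpleGroup (by simp)
  let f' := f.comp e.symm.toMonoidHom
  have hinj : Function.Injective f' := by
    rw [← MonoidHom.ker_eq_bot_iff]
    refine (f'.normal_ker.eq_bot_or_eq_top).resolve_right fun h => h1 ?_
    have : f' (e (PresentedGroup.of 0)) = 1 := MonoidHom.mem_ker.1 (h ▸ Subgroup.mem_top _)
    simpa [f', hf0] using this
  have hr' : f'.range = Subgroup.closure ({s, c} : Set G) := by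
    rw [← hr, MonoidHom.range_comp, MonoidHom.range_eq_top.2 e.symm.surjective, ← MonoidHom.range_eq_map]
  exact ⟨((MonoidHom.ofInjective hinj).trans (MulEquiv.subgroupCongr hr')).symm⟩

abbrev K11 := ZMod 11
abbrev T4 := K11 × K11 × K11 × K11
abbrev P := Matrix.ProjectiveSpecialLinearGroup (Fin 2) K11

def m4 (x y : T4) : T4 :=
  (x.1 * y.1 + x.2.1 * y.2.2.1, x.1 * y.2.1 + x.2.1 * y.2.2.2,
    x.2.2.1 * y.1 + x.2.2.2 * y.2.2.1, x.2.2.1 * y.2.1 + x.2.2.2 * y.2.2.2)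

def i4 (x : T4) : T4 := (x.2.2.2, -x.2.1, -x.2.2.1, x.1)

/-- equal up to sign -/
abbrev Pm (x y : T4) : Prop := x = y ∨ x = -y

def det4 (x : T4) : K11 := x.1 * x.2.2.2 - x.2.1 * x.2.2.1

def toT (A : SL(2, K11)) : T4 := (A.1 0 0, A.1 0 1, A.1 1 0, A.1 1 1)

theorem toT_mul (A B : SL(2, K11)) : toT (A * B) = m4 (toT A) (toT B) := by
  simp [toT, m4, Matrix.SpecialLinearGroup.coe_mul, Matrix.mul_apply, Fin.sum_univ_two]

theorem toT_inv (A : SL(2, K11)) : toT A⁻¹ = i4 (toT A) := by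
  simp [toT, i4, Matrix.SpecialLinearGroup.coe_inv, Matrix.adjugate_fin_two]

theorem toT_injective : Function.Injective toT := by
  intro A B h
  simp only [toT, Prod.mk.injEq] at h
  obtain ⟨h0, h1, h2, h3⟩ := h
  apply Subtype.ext
  ext i j
  fin_cases i <;> fin_cases j <;> assumption

theorem det4_toT (A : SL(2, K11)) : det4 (toT A) = 1 := by
  have := A.2
  rw [Matrix.det_fin_two] at this
  exact this

abbrev π : SL(2, K11) →* P := QuotientGroup.mk' _

theorem pm_symm {u v : T4} (h : Pm u v) : Pm v u := by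
  rcases h with rfl | rfl
  · exact Or.inl rfl
  · exact Or.inr (neg_neg v).symm

theorem pm_trans {u v w : T4} (h : Pm u v) (h' : Pm v w) : Pm u w := by
  rcases h with rfl | rfl <;> rcases h' with rfl | rfl
  · exact Or.inl rfl
  · exact Or.inr rfl
  · exact Or.inr rfl
  · exact Or.inl (neg_neg w)

theorem m4_neg_left (u v : T4) : m4 (-u) v = -m4 u v := by
  simp [m4, Prod.ext_iff]; refine ⟨?_, ?_, ?_, ?_⟩ <;> ring

theorem m4_neg_right (u v : T4) : m4 u (-v) = -m4 u v := by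
  simp [m4, Prod.ext_iff]; refine ⟨?_, ?_, ?_, ?_⟩ <;> ring

theorem pm_mid {u v : T4} (a b : T4) (h : Pm u v) : Pm (m4 (m4 a u) b) (m4 (m4 a v) b) := by
  rcases h with rfl | rfl
  · exact Or.inl rfl
  · exact Or.inr (by rw [m4_neg_right, m4_neg_left])

theorem pm_outer {u v : T4} (b : T4) (h : Pm u v) : Pm (m4 (m4 u b) (i4 u)) (m4 (m4 v b) (i4 v)) := by
  rcases h with rfl | rfl
  · exact Or.inl rfl
  · exact Or.inl (by simp [m4, i4, Prod.ext_iff]; refine ⟨?_, ?_, ?_, ?_⟩ <;> ring)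

theorem π_eq_iff (A B : SL(2, K11)) : π A = π B ↔ Pm (toT A) (toT B) := by
  rw [QuotientGroup.mk'_eq_mk']
  constructor
  · rintro ⟨z, hz, rfl⟩
    obtain ⟨r, hr, hz⟩ := Matrix.SpecialLinearGroup.mem_center_iff.1 hz
    rw [Fintype.card_fin, sq_eq_one_iff] at hr
    rw [toT_mul]
    have : toT z = (r, 0, 0, r) := by simp [toT, ← hz]
    rw [this]
    rcases hr with rfl | rfl
    · left; simp [m4, toT]
    · right; simp [m4, toT]
  · rintro (h | h)
    · exact ⟨1, one_mem _, by rw [mul_one]; exact toT_injective h⟩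
    · refine ⟨-1, ?_, ?_⟩
      · rw [Matrix.SpecialLinearGroup.mem_center_iff]
        exact ⟨-1, by simp, by ext i j; fin_cases i <;> fin_cases j <;> simp [Matrix.SpecialLinearGroup.coe_neg]⟩
      · refine toT_injective ?_
        rw [toT_mul, h]
        simp [m4, toT, Matrix.SpecialLinearGroup.coe_neg]

def mkS (x : T4) (h : det4 x = 1) : SL(2, K11) :=
  ⟨!![x.1, x.2.1; x.2.2.1, x.2.2.2], by rw [Matrix.det_fin_two_of]; exact h⟩

theorem toT_mkS (x : T4) (h : det4 x = 1) : toT (mkS x h) = x := rfl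

def tS : T4 := (0, -1, 1, 0)
def tI : T4 := (1, 0, 0, 1)
def tB0 : T4 := (0, 2, 5, 1)
def tB1 : T4 := (0, 3, 7, 1)
def tT : T4 := (1, 1, 0, 1)
def S0 : List T4 := [(0, 1, 10, 0), (0, 2, 5, 1), (0, 3, 7, 3), (0, 4, 8, 8), (0, 5, 2, 1), (1, 0, 0, 1), (1, 1, 2, 3), (1, 2, 1, 3), (1, 3, 10, 9), (1, 4, 5, 10), (1, 5, 4, 10), (1, 6, 9, 0), (1, 7, 7, 6), (1, 8, 8, 10), (1, 9, 6, 0), (1, 10, 3, 9), (2, 0, 1, 6), (2, 1, 0, 6), (2, 2, 2, 8), (2, 3, 10, 10), (2, 4, 7, 9), (2, 5, 5, 2), (2, 6, 6, 2), (2, 7, 4, 9), (2, 8, 9, 9), (2, 9, 8, 9), (2, 10, 3, 10), (3, 0, 3, 4), (3, 1, 1, 8), (3, 2, 2, 9), (3, 3, 0, 4), (3, 4, 8, 0), (3, 5, 5, 5), (3, 6, 7, 7), (3, 7, 6, 7), (3, 8, 4, 0), (3, 9, 10, 1), (3, 10, 9, 1), (4, 0, 8, 3), (4, 1, 5, 7), (4, 2, 2, 4), (4, 3, 4, 6), (4, 4, 3, 6), (4, 5, 1, 7), (4, 6, 7, 8), (4, 7, 6, 8), (4, 8, 0, 3), (4, 9, 9, 4), (4, 10, 10, 6), (5, 0, 1, 9), (5, 1, 0, 9), (5, 2, 9, 6), (5, 3, 4, 7), (5, 4, 3, 7), (5,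 5, 8, 6), (5, 6, 6, 3), (5, 7, 7, 10), (5, 8, 5, 6), (5, 9, 2, 6), (5, 10, 10, 7)]
def S1 : List T4 := [(0, 1, 10, 0), (0, 2, 5, 4), (0, 3, 7, 1), (0, 4, 8, 10), (0, 5, 2, 4), (1, 0, 0, 1), (1, 1, 9, 10), (1, 2, 3, 7), (1, 3, 2, 7), (1, 4, 8, 0), (1, 5, 6, 9), (1, 6, 5, 9), (1, 7, 7, 6), (1, 8, 4, 0), (1, 9, 1, 10), (1, 10, 10, 2), (2, 0, 4, 6), (2, 1, 1, 1), (2, 2, 3, 9), (2, 3, 2, 9), (2, 4, 0, 6), (2, 5, 6, 10), (2, 6, 5, 10), (2, 7, 10, 8), (2, 8, 8, 5), (2, 9, 9, 8), (2, 10, 7, 8), (3, 0, 1, 4), (3, 1, 0, 4), (3, 2, 6, 8), (3, 3, 4, 8), (3, 4, 3, 8), (3, 5, 5, 5), (3, 6, 2, 8), (3, 7, 10, 9), (3, 8, 8, 7), (3, 9, 9, 9), (3, 10, 7, 9), (4, 0, 10, 3), (4, 1, 5, 7), (4, 2, 3, 10), (4, 3, 2, 10), (4, 4, 4, 7), (4, 5, 1, 7), (4, 6, 9, 0), (4, 7, 7, 7), (4, 8, 8, 8), (4, 9, 6, 0), (4, 10, 0, 3), (5, 0, 4, 9), (5, 1, 2, 5), (5, 2, 1, 5), (5, 3, 3, 2), (5, 4, 0, 9), (5, 5, 8, 6), (5, 6, 6, 3), (5, 7, 7, 10), (5, 8, 5, 6), (5,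 9, 10, 5), (5, 10, 9, 5)]
def CS : List T4 := [(0, 1, 10, 0), (1, 0, 0, 1), (1, 3, 3, 10), (1, 8, 8, 10), (3, 1, 1, 8), (3, 5, 6, 3), (3, 6, 5, 3), (3, 10, 10, 8), (4, 4, 4, 7), (4, 7, 7, 7), (5, 3, 8, 5), (5, 8, 3, 5)]

def sP : P := π (mkS tS (by decide +kernel))
def b0 : P := π (mkS tB0 (by decide +kernel))
def b1 : P := π (mkS tB1 (by decide +kernel))
def K0 : Subgroup P := Subgroup.closure {sP, b0}
def K1 : Subgroup P := Subgroup.closure {sP, b1}

theorem π_one_iff (A : SL(2, K11)) : π A = 1 ↔ Pm (toT A) tI := by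
  rw [← map_one π, π_eq_iff]
  simp [toT, tI]

theorem sP_sq : sP * sP = 1 := by
  rw [sP, ← map_mul, π_one_iff, toT_mul, toT_mkS]; decide +kernel

theorem triple_check : ∀ b ∈ [tB0, tB1], Pm (m4 (m4 b b) b) tI ∧ ¬ Pm b tI ∧
    Pm (m4 (m4 (m4 (m4 (m4 tS b) (m4 tS b)) (m4 tS b)) (m4 tS b)) (m4 tS b)) tI := by decide +kernel

theorem iso_K (b : T4) (hb : det4 b = 1) (h : Pm (m4 (m4 b b) b) tI ∧ ¬ Pm b tI ∧
    Pm (m4 (m4 (m4 (m4 (m4 tS b) (m4 tS b)) (m4 tS b)) (m4 tS b)) (m4 tS b)) tI) :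
    Nonempty (Subgroup.closure ({sP, π (mkS b hb)} : Set P) ≃* alternatingGroup (Fin 5)) := by
  refine iso_of_triple sP_sq ?_ ?_ ?_
  · rw [pow_succ, pow_two, ← map_mul, ← map_mul, π_one_iff]
    simpa [toT_mul, toT_mkS] using h.1
  · simp only [pow_succ, pow_zero, one_mul, sP, ← map_mul, π_one_iff]
    simpa [toT_mul, toT_mkS] using h.2.2
  · rw [Ne, π_one_iff, toT_mkS]; exact h.2.1

theorem iso_K0 : Nonempty (K0 ≃* alternatingGroup (Fin 5)) := iso_K _ _ (triple_check _ (by simp))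
theorem iso_K1 : Nonempty (K1 ≃* alternatingGroup (Fin 5)) := iso_K _ _ (triple_check _ (by simp))

theorem card_A5 {G : Type*} [Group G] {H : Subgroup G} (h : Nonempty (H ≃* alternatingGroup (Fin 5))) :
    Nat.card H = 60 := by
  obtain ⟨e⟩ := h
  rw [Nat.card_congr e.toEquiv, nat_card_alternatingGroup, Nat.card_eq_fintype_card, Fintype.card_fin]
  rfl

/-- a list closed under two generators contains the subgroup they generate -/
theorem subset_list (L : List T4) (b : T4) (hb : det4 b = 1) (h1 : ∃ y ∈ L, Pm tI y)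
    (hcl : ∀ y ∈ L, (∃ z ∈ L, Pm (m4 y tS) z) ∧ ∃ z ∈ L, Pm (m4 y b) z)
    (x : P) (hx : x ∈ Subgroup.closure ({sP, π (mkS b hb)} : Set P)) :
    ∃ A, π A = x ∧ ∃ y ∈ L, Pm (toT A) y := by
  have hpm : ∀ {u v w : T4}, Pm u v → Pm v w → Pm u w := by
    rintro u v w (rfl | rfl) (rfl | rfl) <;> simp [Pm]
  have hm : ∀ (u v : T4), m4 (-u) v = -(m4 u v) := by
    intro u v; simp [m4, Prod.ext_iff]; constructor <;> [skip; constructor] <;> [skip; skip; constructor] <;> ring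
  rw [← SetLike.mem_coe, ← Subgroup.coe_toSubmonoid,
    Subgroup.closure_toSubmonoid_of_finite, SetLike.mem_coe] at hx
  induction hx using Submonoid.closure_induction_right with
  | one => exact ⟨1, map_one π, by obtain ⟨y, hy, h⟩ := h1; exact ⟨y, hy, by simpa [toT, tI] using h⟩⟩
  | mul_right x hx g hg ih =>
    obtain ⟨A, rfl, y, hy, hAy⟩ := ih
    obtain ⟨hS, hB⟩ := hcl y hy
    rcases hg with rfl | rfl
    · obtain ⟨z, hz, h⟩ := hS
      refine ⟨_, map_mul π A _, z, hz, ?_⟩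
      rw [toT_mul, toT_mkS]
      rcases hAy with e | e <;> rw [e]
      · exact h
      · rw [hm]; exact hpm (Or.inr rfl) h
    · obtain ⟨z, hz, h⟩ := hB
      refine ⟨_, map_mul π A _, z, hz, ?_⟩
      rw [toT_mul, toT_mkS]
      rcases hAy with e | e <;> rw [e]
      · exact h
      · rw [hm]; exact hpm (Or.inr rfl) h

theorem closed0 : (∃ y ∈ S0, Pm tI y) ∧ ∀ y ∈ S0, (∃ z ∈ S0, Pm (m4 y tS) z) ∧ ∃ z ∈ S0, Pm (m4 y tB0) z := by
  decide +kernel
theorem closed1 : (∃ y ∈ S1, Pm tI y) ∧ ∀ y ∈ S1, (∃ z ∈ S1, Pm (m4 y tS) z) ∧ ∃ z ∈ S1, Pm (m4 y tB1) z := by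
  decide +kernel

theorem mem_K0 {x : P} (hx : x ∈ K0) : ∃ A, π A = x ∧ ∃ y ∈ S0, Pm (toT A) y :=
  subset_list S0 tB0 (by decide +kernel) closed0.1 closed0.2 x hx
theorem mem_K1 {x : P} (hx : x ∈ K1) : ∃ A, π A = x ∧ ∃ y ∈ S1, Pm (toT A) y :=
  subset_list S1 tB1 (by decide +kernel) closed1.1 closed1.2 x hx

theorem isSimple_P : IsSimpleGroup P :=
  Linear.isSimpleGroup_PSL_fin 2 le_rfl (fun _ => by simp)

theorem card_P : Nat.card P = 660 := by
  have h := Linear.card_PSL_two_mul (F := K11)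
  rw [ZMod.card, show Nat.gcd 2 (11 - 1) = 2 from rfl,
    show 11 * (11 - 1) * (11 + 1) = 2 * 660 from rfl] at h
  exact Nat.eq_of_mul_eq_mul_left two_pos h

theorem index_A5 {H : Subgroup P} (h : Nonempty (H ≃* alternatingGroup (Fin 5))) : H.index = 11 := by
  have := H.index_mul_card
  rw [card_A5 h, card_P] at this
  omega

theorem normalizer_A5 {H : Subgroup P} (h : Nonempty (H ≃* alternatingGroup (Fin 5))) :
    Subgroup.normalizer (H : Set P) = H := by
  have hd := Subgroup.index_dvd_of_le (Subgroup.le_normalizer (H := H))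
  rw [index_A5 h] at hd
  rcases (Nat.dvd_prime (by norm_num)).1 hd with e | e
  · exfalso
    haveI : H.Normal := Subgroup.normalizer_eq_top_iff.1 (Subgroup.index_eq_one.1 e)
    rcases isSimple_P.eq_bot_or_eq_top_of_normal H inferInstance with rfl | rfl
    · have := card_A5 h; simp at this
    · have := index_A5 h; simp at this
  · exact (Subgroup.eq_of_le_of_card_ge Subgroup.le_normalizer (le_of_eq (Nat.eq_of_mul_eq_mul_left
      (show 0 < 11 by norm_num) (by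
        have h1 := H.index_mul_card
        have h2 := (Subgroup.normalizer (H : Set P)).index_mul_card
        rw [index_A5 h] at h1; rw [e] at h2; omega)))).symm

/-! ### every icosahedral subgroup is conjugate to `K0` or `K1` -/

def tB0' : T4 := (10, 8, 1, 2)
def tB1' : T4 := (9, 4, 1, 3)

theorem word0 : Pm (m4 (m4 (m4 (m4 (m4 (m4 (m4 tB0 tB0) tS) tB0) tS) tB0) tB0) tS) tB0' := by decide +kernel
theorem word1 : Pm (m4 (m4 (m4 (m4 (m4 (m4 tS tB1) tS) tB1) tB1) tS) tB1) tB1' := by decide +kernel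

theorem tau_check : ∀ τ : K11, τ ^ 4 - 3 * τ ^ 2 + 1 = 0 → τ ∈ ([3, 4, 7, 8] : List K11) := by decide +kernel

/-! the two heavier checks are run on natural numbers -/

abbrev N4 := ℕ × ℕ × ℕ × ℕ

def cst (x : N4) : T4 := ((x.1 : K11), (x.2.1 : K11), (x.2.2.1 : K11), (x.2.2.2 : K11))

def m4n (x y : N4) : N4 :=
  ((x.1 * y.1 + x.2.1 * y.2.2.1) % 11, (x.1 * y.2.1 + x.2.1 * y.2.2.2) % 11,
    (x.2.2.1 * y.1 + x.2.2.2 * y.2.2.1) % 11, (x.2.2.1 * y.2.1 + x.2.2.2 * y.2.2.2) % 11)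

def i4n (x : N4) : N4 := (x.2.2.2, 10 * x.2.1 % 11, 10 * x.2.2.1 % 11, x.1)

def negn (x : N4) : N4 := (10 * x.1 % 11, 10 * x.2.1 % 11, 10 * x.2.2.1 % 11, 10 * x.2.2.2 % 11)

def det4n (x : N4) : ℕ := (x.1 * x.2.2.2 + 10 * (x.2.1 * x.2.2.1)) % 11

def nm (x : N4) : N4 := (x.1 % 11, x.2.1 % 11, x.2.2.1 % 11, x.2.2.2 % 11)

def pmn (x y : N4) : Bool := nm x == nm y || nm x == nm (negn y)

theorem ten_eq : ((10 : ℕ) : K11) = -1 := by decide +kernel

theorem cst_m4n (x y : N4) : cst (m4n x y) = m4 (cst x) (cst y) := by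
  simp only [cst, m4n, m4, ZMod.natCast_mod, Nat.cast_add, Nat.cast_mul]

theorem cst_i4n (x : N4) : cst (i4n x) = i4 (cst x) := by
  simp only [cst, i4n, i4, ZMod.natCast_mod, Nat.cast_mul, ten_eq, neg_mul, one_mul]

theorem cst_eq_iff {x y : N4} : cst x = cst y ↔ nm x = nm y := by
  simp only [cst, nm, Prod.mk.injEq, ZMod.natCast_eq_natCast_iff']

theorem cst_negn (y : N4) : cst (negn y) = -cst y := by
  simp only [cst, negn, ZMod.natCast_mod, Nat.cast_mul, ten_eq, neg_mul, one_mul, Prod.neg_mk]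

theorem pm_cst_iff {x y : N4} : Pm (cst x) (cst y) ↔ pmn x y = true := by
  simp only [pmn, Bool.or_eq_true, beq_iff_eq, Pm, ← cst_negn, cst_eq_iff]

theorem pm_cst {x y : N4} (h : pmn x y = true) : Pm (cst x) (cst y) := pm_cst_iff.2 h

theorem det4_cst {x : N4} (h : det4n x = 1) : det4 (cst x) = 1 := by
  have h2 := congrArg (fun n : ℕ => (n : K11)) h
  simp only [det4n, ZMod.natCast_mod, Nat.cast_add, Nat.cast_mul, ten_eq, Nat.cast_one] at h2
  simp only [det4, cst]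
  linear_combination h2

def S1n : List N4 := [(0, 1, 10, 0), (0, 2, 5, 4), (0, 3, 7, 1), (0, 4, 8, 10), (0, 5, 2, 4), (1, 0, 0, 1), (1, 1, 9, 10), (1, 2, 3, 7), (1, 3, 2, 7), (1, 4, 8, 0), (1, 5, 6, 9), (1, 6, 5, 9), (1, 7, 7, 6), (1, 8, 4, 0), (1, 9, 1, 10), (1, 10, 10, 2), (2, 0, 4, 6), (2, 1, 1, 1), (2, 2, 3, 9), (2, 3, 2, 9), (2, 4, 0, 6), (2, 5, 6, 10), (2, 6, 5, 10), (2, 7, 10, 8), (2, 8, 8, 5), (2, 9, 9, 8), (2, 10, 7, 8), (3, 0, 1, 4), (3, 1, 0, 4), (3, 2, 6, 8), (3, 3, 4, 8), (3, 4, 3, 8), (3, 5, 5, 5), (3, 6, 2, 8), (3, 7, 10, 9), (3, 8, 8, 7), (3, 9, 9, 9), (3, 10, 7, 9), (4, 0, 10, 3), (4, 1, 5, 7), (4, 2, 3, 10), (4, 3, 2, 10), (4, 4, 4, 7), (4, 5, 1, 7), (4, 6, 9, 0), (4, 7, 7, 7), (4, 8, 8, 8), (4, 9, 6, 0), (4, 10, 0, 3), (5, 0, 4, 9), (5, 1, 2, 5), (5, 2, 1, 5), (5, 3, 3, 2), (5, 4, 0, 9), (5, 5, 8, 6), (5, 6, 6, 3), (5, 7, 7, 10), (5, 8, 5, 6), (5, 9, 10, 5), (5, 10, 9, 5)]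
def CSn : List N4 := [(0, 1, 10, 0), (1, 0, 0, 1), (1, 3, 3, 10), (1, 8, 8, 10), (3, 1, 1, 8), (3, 5, 6, 3), (3, 6, 5, 3), (3, 10, 10, 8), (4, 4, 4, 7), (4, 7, 7, 7), (5, 3, 8, 5), (5, 8, 3, 5)]

def S0n : List N4 := [(0, 1, 10, 0), (0, 2, 5, 1), (0, 3, 7, 3), (0, 4, 8, 8), (0, 5, 2, 1), (1, 0, 0, 1), (1, 1, 2, 3), (1, 2, 1, 3), (1, 3, 10, 9), (1, 4, 5, 10), (1, 5, 4, 10), (1, 6, 9, 0), (1, 7, 7, 6), (1, 8, 8, 10), (1, 9, 6, 0), (1, 10, 3, 9), (2, 0, 1, 6), (2, 1, 0, 6), (2, 2, 2, 8), (2, 3, 10, 10), (2, 4, 7, 9), (2, 5, 5, 2), (2, 6, 6, 2), (2, 7, 4, 9), (2, 8, 9, 9), (2, 9, 8, 9), (2, 10, 3, 10), (3, 0, 3, 4), (3, 1, 1, 8), (3, 2, 2, 9), (3, 3, 0, 4), (3, 4, 8, 0), (3, 5, 5, 5), (3, 6, 7, 7), (3, 7, 6, 7), (3, 8, 4, 0), (3, 9, 10, 1), (3, 10, 9, 1), (4, 0, 8, 3), (4, 1, 5, 7), (4, 2, 2, 4), (4, 3, 4, 6), (4, 4, 3, 6), (4, 5, 1, 7), (4, 6, 7, 8), (4, 7, 6, 8), (4, 8, 0, 3), (4, 9, 9, 4), (4, 10, 10, 6), (5, 0, 1, 9), (5, 1,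 0, 9), (5, 2, 9, 6), (5, 3, 4, 7), (5, 4, 3, 7), (5, 5, 8, 6), (5, 6, 6, 3), (5, 7, 7, 10), (5, 8, 5, 6), (5, 9, 2, 6), (5, 10, 10, 7)]

theorem S0_eq : S0 = S0n.map cst := by decide +kernel
theorem S1_eq : S1 = S1n.map cst := by decide +kernel
theorem CS_eq : CS = CSn.map cst := by decide +kernel

theorem conj_check_nat : ∀ τ ∈ ([3, 4, 7, 8] : List ℕ), ∀ p < 11, ∀ r < 11,
    (p * (1 + 10 * p) + 10 * (r * (r + 10 * τ))) % 11 = 1 →
    CSn.any (fun g => (det4n g == 1) && pmn (m4n (m4n g (0, 10, 1, 0)) (i4n g)) (0, 10, 1, 0) &&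
      (let b := m4n (m4n g (p, r, (r + 10 * τ) % 11, (1 + 10 * p) % 11)) (i4n g)
       pmn b (0, 2, 5, 1) || pmn b (10, 8, 1, 2) || pmn b (0, 3, 7, 1) || pmn b (9, 4, 1, 3))) = true := by
  decide +kernel

theorem conj_check (τ : K11) (hτ : τ ∈ ([3, 4, 7, 8] : List K11)) (p r : K11)
    (h : p * (1 - p) - r * (r - τ) = 1) :
    ∃ g ∈ CS, det4 g = 1 ∧ Pm (m4 (m4 g tS) (i4 g)) tS ∧
      ((∃ y ∈ [tB0, tB0'], Pm (m4 (m4 g (p, r, r - τ, 1 - p)) (i4 g)) y) ∨
       (∃ y ∈ [tB1, tB1'], Pm (m4 (m4 g (p, r, r - τ, 1 - p)) (i4 g)) y)) := by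
  obtain ⟨t, ht, rfl⟩ : ∃ t ∈ ([3, 4, 7, 8] : List ℕ), τ = (t : K11) := by
    simp only [List.mem_cons, List.not_mem_nil, or_false] at hτ
    rcases hτ with rfl | rfl | rfl | rfl
    · exact ⟨3, by simp, rfl⟩
    · exact ⟨4, by simp, rfl⟩
    · exact ⟨7, by simp, rfl⟩
    · exact ⟨8, by simp, rfl⟩
  have hcond : (p.val * (1 + 10 * p.val) + 10 * (r.val * (r.val + 10 * t))) % 11 = 1 := by
    rw [← ZMod.val_natCast]
    simp only [Nat.cast_add, Nat.cast_mul, ten_eq, Nat.cast_one, ZMod.natCast_zmod_val]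
    rw [show p * (1 + -1 * p) + -1 * (r * (r + -1 * (t : K11))) = 1 by linear_combination h]
    rfl
  have hh := conj_check_nat t ht p.val (ZMod.val_lt p) r.val (ZMod.val_lt r) hcond
  rw [List.any_eq_true] at hh
  obtain ⟨g, hg, hgg⟩ := hh
  simp only [Bool.and_eq_true, Bool.or_eq_true, beq_iff_eq] at hgg
  obtain ⟨⟨hd, hs⟩, hb⟩ := hgg
  refine ⟨cst g, by rw [CS_eq]; exact List.mem_map_of_mem hg, det4_cst hd, ?_, ?_⟩
  · have := pm_cst hs
    rw [cst_m4n, cst_m4n, cst_i4n] at this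
    exact this
  · have key : ∀ y : N4, pmn (m4n (m4n g (p.val, r.val, (r.val + 10 * t) % 11, (1 + 10 * p.val) % 11)) (i4n g)) y = true →
        Pm (m4 (m4 (cst g) (p, r, r - (t : K11), 1 - p)) (i4 (cst g))) (cst y) := by
      intro y hy
      have := pm_cst hy
      rw [cst_m4n, cst_m4n, cst_i4n] at this
      have e : cst (p.val, r.val, (r.val + 10 * t) % 11, (1 + 10 * p.val) % 11) = (p, r, r - (t : K11), 1 - p) := by
        simp only [cst, ZMod.natCast_mod, Nat.cast_add, Nat.cast_mul, ten_eq, Nat.cast_one, ZMod.natCast_zmod_val,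
          neg_mul, one_mul, ← sub_eq_add_neg]
      rwa [e] at this
    rcases hb with ((hb | hb) | hb) | hb
    · exact Or.inl ⟨tB0, by simp, key _ hb⟩
    · exact Or.inl ⟨tB0', by simp, key _ hb⟩
    · exact Or.inr ⟨tB1, by simp, key _ hb⟩
    · exact Or.inr ⟨tB1', by simp, key _ hb⟩

theorem neg_one_nonsq : ∀ p : K11, p * p ≠ -1 := by decide +kernel

theorem inv_check (p r u : K11) (h : -p * p - r * u = 1) :
    ∃ x y : K11, x * (-(x * r + y * (-p))) - y * (-(x * p + y * u)) = 1 := by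
  have hr : r ≠ 0 := fun h0 => neg_one_nonsq p (by rw [h0] at h; linear_combination -h)
  obtain ⟨a, b, hab⟩ := ZMod.sq_add_sq 11 (-r)
  refine ⟨(a + p * b) / r, b, ?_⟩
  field_simp
  linear_combination (-1 : K11) * hab - b ^ 2 * h

theorem order_five_check : ∀ t : K11, (t = 1 ∨ t = -1) ↔ t ^ 2 - 1 = 0 := by decide +kernel

/-- Cayley-Hamilton -/
theorem sq_eq (A : SL(2, K11)) : A.1 * A.1 = A.1.trace • A.1 - 1 := by
  have hd := A.2
  rw [Matrix.det_fin_two] at hd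
  ext i j
  fin_cases i <;> fin_cases j <;>
    simp [Matrix.mul_apply, Fin.sum_univ_two, Matrix.trace_fin_two] <;>
    (first | ring1 | linear_combination hd | linear_combination -hd)

theorem scalar_of_π {A : SL(2, K11)} (h : π A = 1) : ∃ r : K11, A.1 = r • 1 := by
  rw [QuotientGroup.mk'_apply, QuotientGroup.eq_one_iff, Matrix.SpecialLinearGroup.mem_center_iff] at h
  obtain ⟨r, -, hr⟩ := h
  exact ⟨r, by rw [← hr, Matrix.scalar_apply, Matrix.smul_one_eq_diagonal]⟩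

theorem nonscalar_smul {A : SL(2, K11)} (hA : π A ≠ 1) {a b : K11} (h : a • A.1 = b • 1) : a = 0 := by
  by_contra ha
  apply hA
  have h2 : A.1 = (a⁻¹ * b) • (1 : Matrix (Fin 2) (Fin 2) K11) := by
    rw [mul_smul, ← h, inv_smul_smul₀ ha]
  rw [QuotientGroup.mk'_apply, QuotientGroup.eq_one_iff, Matrix.SpecialLinearGroup.mem_center_iff]
  refine ⟨a⁻¹ * b, ?_, by rw [h2, Matrix.scalar_apply, Matrix.smul_one_eq_diagonal]⟩
  have hd := A.2
  rw [h2, Matrix.det_smul, Matrix.det_one, mul_one] at hd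
  exact hd

/-- An involution is conjugate to `sP`. -/
theorem conj_involution (a : P) (ha : a * a = 1) (ha1 : a ≠ 1) : ∃ g : P, g * a * g⁻¹ = sP := by
  obtain ⟨A, rfl⟩ := QuotientGroup.mk'_surjective (Subgroup.center SL(2, K11)) a
  have h2 : π (A * A) = 1 := by rw [map_mul]; exact ha
  obtain ⟨r, hr⟩ := scalar_of_π h2
  rw [Matrix.SpecialLinearGroup.coe_mul, sq_eq, sub_eq_iff_eq_add, ← one_smul K11 (1 : Matrix (Fin 2) (Fin 2) K11),
    smul_smul, mul_one, ← add_smul] at hr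
  have htr : A.1.trace = 0 := nonscalar_smul ha1 hr
  rw [Matrix.trace_fin_two] at htr
  have hdet := A.2
  rw [Matrix.det_fin_two] at hdet
  obtain ⟨x, y, hxy⟩ := inv_check (A.1 0 0) (A.1 0 1) (A.1 1 0) (by linear_combination hdet - A.1 0 0 * htr)
  let g : SL(2, K11) := mkS (x, y, -(x * A.1 0 0 + y * A.1 1 0), -(x * A.1 0 1 + y * (-A.1 0 0))) hxy
  refine ⟨π g, ?_⟩
  show π g * π A * (π g)⁻¹ = sP
  rw [mul_inv_eq_iff_eq_mul, sP, ← map_mul, ← map_mul, π_eq_iff]
  left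
  rw [toT_mul, toT_mul, toT_mkS]
  show m4 (x, y, -(x * A.1 0 0 + y * A.1 1 0), -(x * A.1 0 1 + y * (-A.1 0 0))) (toT A) =
    m4 tS (x, y, -(x * A.1 0 0 + y * A.1 1 0), -(x * A.1 0 1 + y * (-A.1 0 0)))
  have h11 : A.1 1 1 = -A.1 0 0 := by linear_combination htr
  simp only [m4, toT, tS, h11, Prod.mk.injEq]
  refine ⟨?_, ?_, ?_, ?_⟩
  · ring
  · ring
  · linear_combination x * hdet - x * A.1 0 0 * h11
  · linear_combination y * hdet - y * A.1 0 0 * h11

theorem exists_conj {H : Subgroup P} (hH : Nonempty (H ≃* alternatingGroup (Fin 5))) :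
    ∃ g : P, MulAut.conj g • H = K0 ∨ MulAut.conj g • H = K1 := by
  classical
  obtain ⟨e⟩ := hH
  let a₀ : alternatingGroup (Fin 5) := ⟨Equiv.swap 0 1 * Equiv.swap 2 3, by rw [Equiv.Perm.mem_alternatingGroup]; decide +kernel⟩
  let c₀ : alternatingGroup (Fin 5) := ⟨Equiv.swap 4 2 * Equiv.swap 2 0, by rw [Equiv.Perm.mem_alternatingGroup]; decide +kernel⟩
  have e1 : a₀ * a₀ = 1 := by decide +kernel
  have e2 : c₀ ^ 3 = 1 := by decide +kernel
  have e3 : (a₀ * c₀) ^ 5 = 1 := by decide +kernel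
  have e4 : a₀ ≠ 1 := by decide +kernel
  have e5 : c₀ ≠ 1 := by decide +kernel
  have e6 : a₀ * c₀ ≠ 1 := by decide +kernel
  let ι : alternatingGroup (Fin 5) →* P := H.subtype.comp e.symm.toMonoidHom
  have hι : Function.Injective ι := Subtype.val_injective.comp e.symm.injective
  obtain ⟨g, hg⟩ := conj_involution (ι a₀) (by rw [← map_mul, e1, map_one]) (fun h => e4 (hι (h.trans (map_one ι).symm)))
  let κ : alternatingGroup (Fin 5) →* P := (MulAut.conj g).toMonoidHom.comp ι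
  have hκ : Function.Injective κ := (MulAut.conj g).injective.comp hι
  have hκa : κ a₀ = sP := hg
  obtain ⟨B', hB'⟩ := QuotientGroup.mk'_surjective (Subgroup.center SL(2, K11)) (κ c₀)
  have hne : π B' ≠ 1 := fun h => e5 (hκ ((hB'.symm.trans h).trans (map_one κ).symm))
  have h3 : π (B' * B' * B') = 1 := by
    rw [map_mul, map_mul, show π B' = κ c₀ from hB', ← map_mul, ← map_mul, ← pow_two, ← pow_succ, e2, map_one]
  obtain ⟨r, hr⟩ := scalar_of_π h3
  set t := B'.1.trace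
  rw [Matrix.SpecialLinearGroup.coe_mul, Matrix.SpecialLinearGroup.coe_mul, sq_eq, Matrix.sub_mul, Matrix.smul_mul,
    sq_eq, Matrix.one_mul, smul_sub, smul_smul] at hr
  have ht : t * t - 1 = 0 := nonscalar_smul hne (b := r + t) (by
    rw [sub_smul, one_smul, add_smul, ← hr]; abel)
  obtain ⟨B, hB, hBt⟩ : ∃ B : SL(2, K11), π B = κ c₀ ∧ B.1.trace = 1 := by
    rcases (order_five_check t).2 (by linear_combination ht) with h | h
    · exact ⟨B', hB', h⟩
    · refine ⟨-B', ?_, ?_⟩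
      · rw [← show π B' = κ c₀ from hB', π_eq_iff]; right; simp [toT]
      · rw [Matrix.SpecialLinearGroup.coe_neg, Matrix.trace_neg]; rw [show B'.1.trace = -1 from h, neg_neg]
  let S : SL(2, K11) := mkS tS (by decide +kernel)
  have hX : π (S * B) = κ (a₀ * c₀) := by rw [map_mul, map_mul, hB, hκa]; rfl
  have hXne : π (S * B) ≠ 1 := fun h => e6 (hκ ((hX.symm.trans h).trans (map_one κ).symm))
  have h5 : π ((S * B) ^ 5) = 1 := by rw [map_pow, hX, ← map_pow, e3, map_one]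
  obtain ⟨r5, hr5⟩ := scalar_of_π h5
  set τ := (S * B).1.trace with hτ
  have hpow : ((S * B).1 : Matrix (Fin 2) (Fin 2) K11) ^ 5 =
      (τ ^ 4 - 3 * τ ^ 2 + 1) • (S * B).1 + (2 * τ - τ ^ 3) • 1 := by
    have q2 := sq_eq (S * B)
    rw [← hτ] at q2
    have q3 : (S * B).1 * (S * B).1 * (S * B).1 = (τ ^ 2 - 1) • (S * B).1 - τ • 1 := by
      rw [q2, Matrix.sub_mul, Matrix.smul_mul, q2, Matrix.one_mul]; module
    rw [show (5 : ℕ) = 3 + 2 from rfl, pow_add, pow_succ, pow_two, q3, q2, Matrix.sub_mul, Matrix.smul_mul,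
      Matrix.smul_mul, Matrix.one_mul, Matrix.mul_sub, Matrix.mul_smul, q2, Matrix.mul_one]
    module
  rw [Matrix.SpecialLinearGroup.coe_pow, hpow] at hr5
  have hτ0 : τ ^ 4 - 3 * τ ^ 2 + 1 = 0 := nonscalar_smul hXne (b := r5 - (2 * τ - τ ^ 3)) (by
    rw [sub_smul, ← hr5]; abel)
  have hτe : τ = B.1 0 1 - B.1 1 0 := by
    rw [hτ, Matrix.trace_fin_two, Matrix.SpecialLinearGroup.coe_mul]
    simp [S, mkS, tS, Matrix.mul_apply, Fin.sum_univ_two]
    ring
  have hBd := B.2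
  rw [Matrix.det_fin_two] at hBd
  rw [Matrix.trace_fin_two] at hBt
  have h11 : B.1 1 1 = 1 - B.1 0 0 := by linear_combination hBt
  rw [h11] at hBd
  obtain ⟨k, hk, hkd, hks, hkb⟩ := conj_check τ (tau_check τ hτ0) (B.1 0 0) (B.1 0 1)
    (by rw [hτe]; linear_combination hBd)
  rw [show B.1 0 1 - τ = B.1 1 0 by rw [hτe]; ring] at hkb
  let k' : SL(2, K11) := mkS k hkd
  have hkP : π k' * sP * (π k')⁻¹ = sP := by
    rw [← map_inv, sP, ← map_mul, ← map_mul, π_eq_iff, toT_mul, toT_mul, toT_inv]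
    exact hks
  let lam : alternatingGroup (Fin 5) →* P := (MulAut.conj (π k')).toMonoidHom.comp κ
  have hlam : Function.Injective lam := (MulAut.conj (π k')).injective.comp hκ
  have hlr : lam.range = MulAut.conj (π k' * g) • H := by
    rw [map_mul, mul_smul]
    have htop : e.symm.toMonoidHom.range = ⊤ := MonoidHom.range_eq_top.2 e.symm.surjective
    simp only [lam, κ, ι, MonoidHom.range_comp, htop, ← MonoidHom.range_eq_map, Subgroup.range_subtype]
    rfl
  have hla : lam a₀ = sP := by show π k' * κ a₀ * (π k')⁻¹ = sP; rw [hκa, hkP]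
  have hlc : ∀ (y : T4) (Y : SL(2, K11)), toT Y = y → Pm (m4 (m4 k (B.1 0 0, B.1 0 1, B.1 1 0, 1 - B.1 0 0)) (i4 k)) y →
      lam c₀ = π Y := by
    intro y Y hY h
    show π k' * κ c₀ * (π k')⁻¹ = π Y
    rw [← hB, ← map_inv, ← map_mul, ← map_mul, π_eq_iff, toT_mul, toT_mul, toT_inv, hY]
    simpa [toT, k', mkS, h11] using h
  refine ⟨π k' * g, ?_⟩
  have key : ∀ K : Subgroup P, Nonempty (K ≃* alternatingGroup (Fin 5)) → ∀ b : P,
      K = Subgroup.closure {sP, b} → b ∈ lam.range → lam.range = K := by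
    intro K hK b hKb hb
    refine (Subgroup.eq_of_le_of_card_ge ?_ ?_).symm
    · rw [hKb, Subgroup.closure_le]
      rintro x (rfl | rfl)
      · exact ⟨a₀, hla⟩
      · exact hb
    · rw [card_A5 hK, card_A5 ⟨(MonoidHom.ofInjective hlam).symm⟩]
  have hword0 : ∀ y ∈ [tB0, tB0'],
      Pm (m4 (m4 k (B.1 0 0, B.1 0 1, B.1 1 0, 1 - B.1 0 0)) (i4 k)) y → lam.range = K0 := by
    intro y hy hyk
    let B0 : SL(2, K11) := mkS tB0 (by decide +kernel)
    simp only [List.mem_cons, List.not_mem_nil, or_false] at hy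
    rcases hy with rfl | rfl
    · exact key K0 iso_K0 b0 rfl ⟨c₀, hlc _ B0 rfl hyk⟩
    · let Y := B0 * B0 * S * B0 * S * B0 * B0 * S
      have hY := hlc _ Y rfl (pm_trans hyk (pm_symm (by simp only [Y, toT_mul]; exact word0)))
      -- `lam c₀` lies in `K0`
      have hle : lam.range ≤ K0 := by
        have hb : π B0 ∈ K0 := Subgroup.subset_closure (by simp [b0, B0])
        have hs : π S ∈ K0 := Subgroup.subset_closure (by simp [sP, S])
        have hgen : Subgroup.closure ({a₀, c₀} : Set (alternatingGroup (Fin 5))) = ⊤ := by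
          refine Subgroup.eq_top_of_card_eq _ ?_
          rw [card_A5 (iso_of_triple e1 e2 e3 e5), nat_card_alternatingGroup, Nat.card_eq_fintype_card, Fintype.card_fin]
          rfl
        rw [MonoidHom.range_eq_map, ← hgen, MonoidHom.map_closure, Set.image_pair, hla, hY, Subgroup.closure_le]
        rintro x (rfl | rfl)
        · exact hs
        · simp only [Y, map_mul]
          exact mul_mem (mul_mem (mul_mem (mul_mem (mul_mem (mul_mem (mul_mem hb hb) hs) hb) hs) hb) hb) hs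
      exact Subgroup.eq_of_le_of_card_ge hle (by rw [card_A5 iso_K0, card_A5 ⟨(MonoidHom.ofInjective hlam).symm⟩])
  have hword1 : ∀ y ∈ [tB1, tB1'],
      Pm (m4 (m4 k (B.1 0 0, B.1 0 1, B.1 1 0, 1 - B.1 0 0)) (i4 k)) y → lam.range = K1 := by
    intro y hy hyk
    let B0 : SL(2, K11) := mkS tB1 (by decide +kernel)
    simp only [List.mem_cons, List.not_mem_nil, or_false] at hy
    rcases hy with rfl | rfl
    · exact key K1 iso_K1 b1 rfl ⟨c₀, hlc _ B0 rfl hyk⟩
    · let Y := S * B0 * S * B0 * B0 * S * B0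
      have hY := hlc _ Y rfl (pm_trans hyk (pm_symm (by simp only [Y, toT_mul]; exact word1)))
      have hle : lam.range ≤ K1 := by
        have hb : π B0 ∈ K1 := Subgroup.subset_closure (by simp [b1, B0])
        have hs : π S ∈ K1 := Subgroup.subset_closure (by simp [sP, S])
        have hgen : Subgroup.closure ({a₀, c₀} : Set (alternatingGroup (Fin 5))) = ⊤ := by
          refine Subgroup.eq_top_of_card_eq _ ?_
          rw [card_A5 (iso_of_triple e1 e2 e3 e5), nat_card_alternatingGroup, Nat.card_eq_fintype_card, Fintype.card_fin]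
          rfl
        rw [MonoidHom.range_eq_map, ← hgen, MonoidHom.map_closure, Set.image_pair, hla, hY, Subgroup.closure_le]
        rintro x (rfl | rfl)
        · exact hs
        · simp only [Y, map_mul]
          exact mul_mem (mul_mem (mul_mem (mul_mem (mul_mem (mul_mem hs hb) hs) hb) hb) hs) hb
      exact Subgroup.eq_of_le_of_card_ge hle (by rw [card_A5 iso_K1, card_A5 ⟨(MonoidHom.ofInjective hlam).symm⟩])
  rw [← hlr]
  rcases hkb with ⟨y, hy, h⟩ | ⟨y, hy, h⟩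
  · exact Or.inl (hword0 y hy h)
  · exact Or.inr (hword1 y hy h)

/-! ### `K0` and `K1` are not conjugate -/

theorem nc1_nat : S1n.all (fun y => (y.1 + y.2.2.2) % 11 != 0 ||
    S1n.any (fun k => (det4n k == 1) && pmn (m4n (m4n k y) (i4n k)) (0, 10, 1, 0))) = true := by
  decide +kernel

theorem nc1 (y : T4) (hy : y ∈ S1) (h0 : y.1 + y.2.2.2 = 0) :
    ∃ k ∈ S1, det4 k = 1 ∧ Pm (m4 (m4 k y) (i4 k)) tS := by
  rw [S1_eq, List.mem_map] at hy
  obtain ⟨z, hz, rfl⟩ := hy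
  have h := List.all_eq_true.1 nc1_nat z hz
  have h0' : (z.1 + z.2.2.2) % 11 = 0 := by
    rw [← ZMod.val_natCast, Nat.cast_add]
    exact (congrArg ZMod.val h0).trans ZMod.val_zero
  simp only [Bool.or_eq_true, bne_iff_ne, h0', ne_eq, not_true_eq_false, false_or, List.any_eq_true,
    Bool.and_eq_true, beq_iff_eq] at h
  obtain ⟨k, hk, hd, hs⟩ := h
  refine ⟨cst k, by rw [S1_eq]; exact List.mem_map_of_mem hk, det4_cst hd, ?_⟩
  have := pm_cst hs
  rw [cst_m4n, cst_m4n, cst_i4n] at this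
  exact this

theorem nc2_nat : ∀ a < 11, ∀ b < 11, (a * a + b * b) % 11 = 1 →
    CSn.any (fun g => pmn (a, b, 10 * b, a) g) = true := by decide +kernel

theorem nc3_nat : ∀ a < 11, ∀ b < 11, (10 * (a * a) + 10 * (b * b)) % 11 = 1 →
    CSn.any (fun g => pmn (a, b, b, 10 * a) g) = true := by decide +kernel

theorem nc2 (a b : K11) (h : a * a + b * b = 1) : ∃ g ∈ CS, Pm (a, b, -b, a) g := by
  have hc : (a.val * a.val + b.val * b.val) % 11 = 1 := by
    rw [← ZMod.val_natCast]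
    simp only [Nat.cast_add, Nat.cast_mul, ZMod.natCast_zmod_val, h]
    rfl
  have hh := nc2_nat a.val (ZMod.val_lt a) b.val (ZMod.val_lt b) hc
  rw [List.any_eq_true] at hh
  obtain ⟨g, hg, hgg⟩ := hh
  refine ⟨cst g, by rw [CS_eq]; exact List.mem_map_of_mem hg, ?_⟩
  have := pm_cst hgg
  simpa [cst, ZMod.natCast_zmod_val, show (10 : K11) = -1 from ten_eq] using this

theorem nc3 (a b : K11) (h : -a * a - b * b = 1) : ∃ g ∈ CS, Pm (a, b, b, -a) g := by
  have hc : (10 * (a.val * a.val) + 10 * (b.val * b.val)) % 11 = 1 := by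
    rw [← ZMod.val_natCast]
    simp only [Nat.cast_add, Nat.cast_mul, ten_eq, ZMod.natCast_zmod_val]
    rw [show -1 * (a * a) + -1 * (b * b) = 1 by linear_combination h]
    rfl
  have hh := nc3_nat a.val (ZMod.val_lt a) b.val (ZMod.val_lt b) hc
  rw [List.any_eq_true] at hh
  obtain ⟨g, hg, hgg⟩ := hh
  refine ⟨cst g, by rw [CS_eq]; exact List.mem_map_of_mem hg, ?_⟩
  have := pm_cst hgg
  simpa [cst, ZMod.natCast_zmod_val, show (10 : K11) = -1 from ten_eq] using this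

theorem nc4_nat : CSn.all (fun g =>
    S1n.all (fun k => !pmn (m4n (m4n g (0, 2, 5, 1)) (i4n g)) k)) = true := by decide +kernel

theorem nc4 : ∀ g ∈ CS, ∀ k ∈ S1, ¬ Pm (m4 (m4 g tB0) (i4 g)) k := by
  intro g hg k hk h
  rw [CS_eq, List.mem_map] at hg
  rw [S1_eq, List.mem_map] at hk
  obtain ⟨g, hg, rfl⟩ := hg
  obtain ⟨k, hk, rfl⟩ := hk
  rw [show tB0 = cst (0, 2, 5, 1) from rfl, ← cst_i4n, ← cst_m4n, ← cst_m4n, pm_cst_iff] at h
  have := List.all_eq_true.1 (List.all_eq_true.1 nc4_nat g hg) k hk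
  rw [h] at this
  exact absurd this (by simp)

theorem nc5_nat : S0n.all (fun y => !pmn (1, 1, 0, 1) y) = true := by decide +kernel

theorem nc5 : ∀ y ∈ S0, ¬ Pm tT y := by
  intro y hy h
  rw [S0_eq, List.mem_map] at hy
  obtain ⟨y, hy, rfl⟩ := hy
  rw [show tT = cst (1, 1, 0, 1) by decide +kernel, pm_cst_iff] at h
  have := List.all_eq_true.1 nc5_nat y hy
  rw [h] at this
  exact absurd this (by simp)

theorem nc6_nat : (S0n.filter fun y =>
    S0n.any fun z => pmn (m4n (m4n (i4n (1, 1, 0, 1)) y) (1, 1, 0, 1)) z).length ≤ 6 := by decide +kernel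

theorem nc6 : (S0.filter fun y => decide (∃ z ∈ S0, Pm (m4 (m4 (i4 tT) y) tT) z)).length ≤ 6 := by
  rw [S0_eq, List.filter_map, List.length_map]
  refine le_of_eq_of_le ?_ nc6_nat
  congr 2
  funext y
  rw [Bool.eq_iff_iff]
  simp only [Function.comp_apply, decide_eq_true_eq, List.any_eq_true, List.mem_map, exists_exists_and_eq_and]
  simp only [show tT = cst (1, 1, 0, 1) from rfl, ← cst_i4n, ← cst_m4n, pm_cst_iff]

theorem S1_mem {y : T4} (hy : y ∈ S1) (hd : det4 y = 1) : π (mkS y hd) ∈ K1 := by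
  classical
  haveI : Fintype K1 := Fintype.ofFinite _
  by_contra hn
  -- otherwise `K1` would have fewer than sixty elements
  have hsub : ∀ x : K1, ∃ z : {z : T4 // z ∈ S1.filter (fun z => decide (¬ Pm z y))},
      ∃ A, π A = (x : P) ∧ Pm (toT A) z.1 := by
    intro x
    obtain ⟨A, hA, z, hz, hAz⟩ := mem_K1 x.2
    refine ⟨⟨z, List.mem_filter.2 ⟨hz, decide_eq_true fun hzy => hn ?_⟩⟩, A, hA, hAz⟩
    have : π A = π (mkS y hd) := by
      rw [π_eq_iff, toT_mkS]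
      rcases hAz with e | e <;> rcases hzy with f | f <;> rw [e, f] <;> simp [Pm]
    exact this ▸ hA ▸ x.2
  choose f hf using hsub
  have hinj : Function.Injective f := by
    intro u v huv
    obtain ⟨A, hA, hAz⟩ := hf u
    obtain ⟨B, hB, hBz⟩ := hf v
    apply Subtype.ext
    rw [← hA, ← hB, π_eq_iff]
    rw [huv] at hAz
    rcases hAz with e | e <;> rcases hBz with f | f <;> rw [e, f] <;> simp [Pm]
  have h1 := Fintype.card_le_of_injective f hinj
  have h2 : Fintype.card {z : T4 // z ∈ S1.filter (fun z => decide (¬ Pm z y))} ≤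
      (S1.filter (fun z => decide (¬ Pm z y))).length := by
    rw [Fintype.card_of_subtype (S1.filter (fun z => decide (¬ Pm z y))).toFinset (by simp)]
    exact List.toFinset_card_le _
  have h3 : (S1.filter (fun z => decide (¬ Pm z y))).length < S1.length := by
    rw [List.length_filter_lt_length_iff_exists]
    exact ⟨y, hy, by simp [Pm]⟩
  have h4 := card_A5 iso_K1
  rw [Nat.card_eq_fintype_card] at h4
  have h5 : S1.length = 60 := rfl
  omega

theorem not_conj (g : P) : MulAut.conj g • K0 ≠ K1 := by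
  intro h
  have hin : ∀ x ∈ K0, g * x * g⁻¹ ∈ K1 := fun x hx => h ▸ Subgroup.smul_mem_pointwise_smul x (MulAut.conj g) K0 hx
  have hs : sP ∈ K0 := Subgroup.subset_closure (by simp)
  obtain ⟨A, hA, y, hy, hAy⟩ := mem_K1 (hin _ hs)
  obtain ⟨G, rfl⟩ := QuotientGroup.mk'_surjective (Subgroup.center SL(2, K11)) g
  let S : SL(2, K11) := mkS tS (by decide +kernel)
  have e : π A = π (G * S * G⁻¹) := by rw [map_mul, map_mul, map_inv]; exact hA
  have htr : (G * S * G⁻¹).1.trace = 0 := by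
    rw [Matrix.SpecialLinearGroup.coe_mul, Matrix.trace_mul_comm, ← Matrix.SpecialLinearGroup.coe_mul,
      inv_mul_cancel_left, Matrix.trace_fin_two]
    simp [S, mkS, tS]
  have hy0 : y.1 + y.2.2.2 = 0 := by
    rw [Matrix.trace_fin_two] at htr
    rw [π_eq_iff] at e
    rcases hAy with f | f <;> rcases e with e' | e' <;> rw [f] at e' <;>
      simp only [toT, Prod.ext_iff, Prod.fst_neg, Prod.snd_neg] at e'
    · linear_combination htr + e'.1 + e'.2.2.2
    · linear_combination -htr + e'.1 + e'.2.2.2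
    · linear_combination -htr - e'.1 - e'.2.2.2
    · linear_combination htr - e'.1 - e'.2.2.2
  obtain ⟨k, hk, hkd, hky⟩ := nc1 y hy hy0
  let k' : SL(2, K11) := mkS k hkd
  have hkK : π k' ∈ K1 := S1_mem hk hkd
  have hfix : π (k' * G) * sP * (π (k' * G))⁻¹ = sP := by
    have hy2 : π k' * π A * (π k')⁻¹ = sP := by
      rw [sP, ← map_inv, ← map_mul, ← map_mul, π_eq_iff, toT_mul, toT_mul, toT_inv, toT_mkS, toT_mkS]
      rcases hAy with f | f <;> rw [f]
      · exact hky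
      · rcases hky with q | q
        · right; rw [← q]; simp [m4, Prod.ext_iff]; refine ⟨?_, ?_, ?_, ?_⟩ <;> ring
        · left; rw [← neg_neg tS, ← q]; simp [m4, Prod.ext_iff]; refine ⟨?_, ?_, ?_, ?_⟩ <;> ring
    calc π (k' * G) * sP * (π (k' * G))⁻¹ = π k' * (π G * sP * (π G)⁻¹) * (π k')⁻¹ := by rw [map_mul]; group
      _ = sP := by rw [show π G * sP * (π G)⁻¹ = π A from hA.symm, hy2]
  have hC : ∃ c ∈ CS, Pm (toT (k' * G)) c := by
    rw [mul_inv_eq_iff_eq_mul, sP, ← map_mul, ← map_mul, π_eq_iff, toT_mul, toT_mul _ (k' * G)] at hfix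
    have hd := det4_toT (k' * G)
    revert hfix hd
    generalize toT (k' * G) = x
    rw [toT_mkS]
    obtain ⟨a, b, c, d⟩ := x
    intro hd hfix
    rcases hd with q | q <;> simp only [m4, tS, Prod.neg_mk, Prod.mk.injEq] at q <;> simp only [det4] at hfix
    · have hc : c = -b := by linear_combination q.1
      have hd' : d = a := by linear_combination q.2.2.1
      rw [hc, hd'] at hfix ⊢
      exact nc2 a b (by linear_combination hfix)
    · have hc : c = b := by linear_combination -q.1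
      have hd' : d = -a := by linear_combination q.2.2.1
      rw [hc, hd'] at hfix ⊢
      exact nc3 a b (by linear_combination hfix)
  obtain ⟨c, hc, hcx⟩ := hC
  have hb : π (k' * G) * b0 * (π (k' * G))⁻¹ ∈ K1 := by
    have := mul_mem (mul_mem hkK (hin b0 (Subgroup.subset_closure (by simp)))) (inv_mem hkK)
    rw [map_mul]
    have e2 : π k' * π G * b0 * (π k' * π G)⁻¹ = π k' * (π G * b0 * (π G)⁻¹) * (π k')⁻¹ := by group
    rw [e2]; exact this
  obtain ⟨A', hA', y', hy', hAy'⟩ := mem_K1 hb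
  apply nc4 c hc y' hy'
  rw [b0, ← map_inv, ← map_mul, ← map_mul, π_eq_iff, toT_mul, toT_mul, toT_inv, toT_mkS] at hA'
  exact pm_trans (pm_symm (pm_outer tB0 hcx)) (pm_trans (pm_symm hA') hAy')

/-- The two classes together have twenty-two members. -/
theorem card_A5_subgroups : Nat.card {H : Subgroup P // Nonempty (H ≃* alternatingGroup (Fin 5))} = 22 := by
  classical
  have hiso : ∀ (g : P) (K : Subgroup P), Nonempty (K ≃* alternatingGroup (Fin 5)) →
      Nonempty ((MulAut.conj g • K : Subgroup P) ≃* alternatingGroup (Fin 5)) :=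
    fun g K ⟨e⟩ => ⟨(Subgroup.equivSMul _ K).symm.trans e⟩
  have hstab : ∀ (K : Subgroup P), Nonempty (K ≃* alternatingGroup (Fin 5)) → ∀ g h : P,
      MulAut.conj g • K = MulAut.conj h • K ↔ g⁻¹ * h ∈ K := by
    intro K hK g h
    constructor
    · intro e
      rw [← normalizer_A5 hK]
      have e2 : MulAut.conj (g⁻¹ * h) • K = K := by rw [map_mul, mul_smul, ← e, map_inv, inv_smul_smul]
      rw [Subgroup.mem_normalizer_iff]
      intro n
      have := Subgroup.smul_mem_pointwise_smul_iff (a := MulAut.conj (g⁻¹ * h)) (S := K) (x := n)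
      rw [e2, MulAut.smul_def, MulAut.conj_apply] at this
      exact this.symm
    · intro e
      calc MulAut.conj g • K = MulAut.conj g • MulAut.conj (g⁻¹ * h) • K := by rw [Subgroup.conj_smul_eq_self_of_mem e]
        _ = MulAut.conj h • K := by rw [smul_smul, ← map_mul, mul_inv_cancel_left]
  let f : (P ⧸ K0) ⊕ (P ⧸ K1) → {H : Subgroup P // Nonempty (H ≃* alternatingGroup (Fin 5))} :=
    Sum.elim
      (Quotient.lift (fun g => ⟨MulAut.conj g • K0, hiso g _ iso_K0⟩)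
        (fun g h hgh => Subtype.ext ((hstab _ iso_K0 g h).2 (QuotientGroup.leftRel_apply.1 hgh))))
      (Quotient.lift (fun g => ⟨MulAut.conj g • K1, hiso g _ iso_K1⟩)
        (fun g h hgh => Subtype.ext ((hstab _ iso_K1 g h).2 (QuotientGroup.leftRel_apply.1 hgh))))
  rw [← Nat.card_eq_of_bijective f ⟨?_, ?_⟩, Nat.card_sum]
  · rw [show Nat.card (P ⧸ K0) = K0.index from rfl, show Nat.card (P ⧸ K1) = K1.index from rfl,
      index_A5 iso_K0, index_A5 iso_K1]
  · rintro (u | u) (v | v) huv <;> induction u using QuotientGroup.induction_on <;>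
      induction v using QuotientGroup.induction_on <;> rename_i g h <;>
      have huv' := congrArg Subtype.val huv
    · exact congrArg Sum.inl (QuotientGroup.eq.2 ((hstab _ iso_K0 g h).1 huv'))
    · refine absurd ?_ (not_conj (h⁻¹ * g))
      rw [map_mul, mul_smul, map_inv, inv_smul_eq_iff]; exact huv'
    · refine absurd ?_ (not_conj (g⁻¹ * h))
      rw [map_mul, mul_smul, map_inv, inv_smul_eq_iff]; exact huv'.symm
    · exact congrArg Sum.inr (QuotientGroup.eq.2 ((hstab _ iso_K1 g h).1 huv'))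
  · rintro ⟨H, hH⟩
    obtain ⟨g, hg | hg⟩ := exists_conj hH
    · exact ⟨Sum.inl (QuotientGroup.mk g⁻¹), Subtype.ext (show MulAut.conj g⁻¹ • K0 = H by rw [← hg, map_inv, inv_smul_smul])⟩
    · exact ⟨Sum.inr (QuotientGroup.mk g⁻¹), Subtype.ext (show MulAut.conj g⁻¹ • K1 = H by rw [← hg, map_inv, inv_smul_smul])⟩

/-- `K0` is transitive on its non-trivial cosets. -/
theorem two_trans : MulAction.IsMultiplyPretransitive P (P ⧸ K0) 2 := by
  classical
  haveI : Fintype (P ⧸ K0) := Fintype.ofFinite _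
  let t : P := π (mkS tT (by decide +kernel))
  let x₀ : P ⧸ K0 := QuotientGroup.mk 1
  let x₁ : P ⧸ K0 := QuotientGroup.mk t
  have hne : x₁ ≠ x₀ := by
    intro h
    rw [QuotientGroup.eq, mul_one, inv_mem_iff] at h
    obtain ⟨A, hA, y, hy, hAy⟩ := mem_K0 h
    apply nc5 y hy
    rw [π_eq_iff, toT_mkS] at hA
    exact pm_trans (pm_symm hA) hAy
  have hst : Nat.card (MulAction.stabilizer K0 x₁) ≤ 6 := by
    let L := S0.filter fun y => decide (∃ z ∈ S0, Pm (m4 (m4 (i4 tT) y) tT) z)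
    have hmap : ∀ x : MulAction.stabilizer K0 x₁, ∃ z : {z : T4 // z ∈ L}, ∃ A, π A = ((x : K0) : P) ∧ Pm (toT A) z.1 := by
      intro x
      obtain ⟨A, hA, y, hy, hAy⟩ := mem_K0 (x : K0).2
      have hx : (((x : K0) : P)) • x₁ = x₁ := x.2
      rw [MulAction.Quotient.smul_mk, smul_eq_mul, QuotientGroup.eq] at hx
      have hx' : t⁻¹ * (((x : K0) : P)) * t ∈ K0 := by
        have := inv_mem hx
        rwa [_root_.mul_inv_rev, inv_inv, ← mul_assoc] at this
      obtain ⟨B, hB, z, hz, hBz⟩ := mem_K0 hx'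
      refine ⟨⟨y, List.mem_filter.2 ⟨hy, decide_eq_true ⟨z, hz, ?_⟩⟩⟩, A, hA, hAy⟩
      rw [← hA, ← map_inv, ← map_mul, ← map_mul, π_eq_iff, toT_mul, toT_mul, toT_inv, toT_mkS] at hB
      exact pm_trans (pm_symm (pm_mid _ _ hAy)) (pm_trans (pm_symm hB) hBz)
    choose f hf using hmap
    have hinj : Function.Injective f := by
      intro u v huv
      obtain ⟨A, hA, hAz⟩ := hf u
      obtain ⟨B, hB, hBz⟩ := hf v
      apply Subtype.ext; apply Subtype.ext
      rw [← hA, ← hB, π_eq_iff]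
      rw [huv] at hAz
      rcases hAz with e | e <;> rcases hBz with f | f <;> rw [e, f] <;> simp [Pm]
    haveI : Finite {z : T4 // z ∈ L} := Finite.of_fintype _
    refine (Nat.card_le_card_of_injective f hinj).trans ?_
    rw [Nat.card_eq_fintype_card, Fintype.card_of_subtype L.toFinset (by simp)]
    exact (List.toFinset_card_le L).trans nc6
  have horb : ∀ y : P ⧸ K0, y ≠ x₀ → y ∈ MulAction.orbit K0 x₁ := by
    have h1 := MulAction.card_orbit_mul_card_stabilizer_eq_card_group K0 x₁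
    rw [← Nat.card_eq_fintype_card, ← Nat.card_eq_fintype_card, ← Nat.card_eq_fintype_card, card_A5 iso_K0] at h1
    have h2 : 10 ≤ (MulAction.orbit K0 x₁).toFinset.card := by
      rw [Set.toFinset_card, ← Nat.card_eq_fintype_card]
      nlinarith [h1, hst]
    have hsub : (MulAction.orbit K0 x₁).toFinset ⊆ Finset.univ.erase x₀ := by
      intro y hy
      rw [Set.mem_toFinset] at hy
      obtain ⟨k, rfl⟩ := hy
      refine Finset.mem_erase.2 ⟨fun h => hne ?_, Finset.mem_univ _⟩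
      have h' : k • x₁ = x₀ := h
      rw [← inv_smul_smul k x₁, h']
      show ((k⁻¹ : K0) : P) • (QuotientGroup.mk 1 : P ⧸ K0) = _
      rw [MulAction.Quotient.smul_mk, smul_eq_mul, mul_one, QuotientGroup.eq, mul_one]
      exact inv_mem (k⁻¹).2
    have hcard : (Finset.univ.erase x₀).card = 10 := by
      rw [Finset.card_erase_of_mem (Finset.mem_univ _), Finset.card_univ, ← Nat.card_eq_fintype_card,
        show Nat.card (P ⧸ K0) = K0.index from rfl, index_A5 iso_K0]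
    intro y hy
    have := Finset.eq_of_subset_of_card_le hsub (hcard.symm ▸ h2)
    have hy' : y ∈ Finset.univ.erase x₀ := Finset.mem_erase.2 ⟨hy, Finset.mem_univ _⟩
    rw [← this, Set.mem_toFinset] at hy'
    exact hy'
  have hmove : ∀ a b : P ⧸ K0, a ≠ b → ∃ g : P, g • x₀ = a ∧ g • x₁ = b := by
    intro a b hab
    obtain ⟨u, rfl⟩ := QuotientGroup.mk_surjective a
    have hu : u • x₀ = (QuotientGroup.mk u : P ⧸ K0) := by simp [x₀]
    obtain ⟨k, hk⟩ := horb (u⁻¹ • b) (fun h => hab (by rw [← hu, ← h, smul_inv_smul]))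
    refine ⟨u * (k : P), ?_, ?_⟩
    · rw [mul_smul, ← hu]
      congr 1
      simp only [x₀, MulAction.Quotient.smul_mk, smul_eq_mul, mul_one, QuotientGroup.eq]
      exact inv_mem k.2
    · rw [mul_smul, show (k : P) • x₁ = u⁻¹ • b from hk, smul_inv_smul]
  rw [MulAction.is_two_pretransitive_iff]
  intro a b c d hab hcd
  obtain ⟨g, hga, hgb⟩ := hmove a b hab
  obtain ⟨h, hhc, hhd⟩ := hmove c d hcd
  exact ⟨h * g⁻¹, by rw [← hga, mul_smul, inv_smul_smul, hhc], by rw [← hgb, mul_smul, inv_smul_smul, hhd]⟩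

end Cfsg.Agent.SmallPSL.Eleven
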