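import Mathlib

/-!
A simple group of order 2520 acting faithfully by automorphisms on an elementary group of order 16
is 2-transitive on the 15 non-zero elements.
-/

set_option autoImplicit false
set_option linter.style.haveILetI false

namespace Cfsg.Agent.SmallPSL.AltSevenFifteen

open MulAction Subgroup

theorem modEq_of_eq {p a b : ℕ} (h : a = b) : a ≡ b [MOD p] := h ▸ Nat.ModEq.refl a

universe u v

variable {G : Type u} {V : Type v} [Group G] [Finite G] [AddCommGroup V] [Finite V] [DistribMulAction G V]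
  [FaithfulSMul G V]

theorem isPGroup_zpowers {p : ℕ} {g : G} (hg : orderOf g = p) :
    IsPGroup p (zpowers g) :=
  IsPGroup.of_card (n := 1) (by rw [Nat.card_zpowers, hg, pow_one])

theorem card_fixed {p : ℕ} [hp : Fact p.Prime] {g : G} (hg : orderOf g = p) (hV : Nat.card V = 16) :
    Nat.card {x : V // g • x = x} ∈ Nat.divisors 16 ∧ Nat.card {x : V // g • x = x} ≡ 16 [MOD p] ∧
      Nat.card {x : V // g • x = x} ≠ 16 := by
  let W : AddSubgroup V :=
    { carrier := {x | g • x = x}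
      zero_mem' := smul_zero g
      add_mem' := fun {a b} ha hb => by
        show g • (a + b) = a + b
        rw [smul_add, ha, hb]
      neg_mem' := fun {a} ha => by
        show g • (-a) = -a
        rw [smul_neg, ha] }
  have h1 : Nat.card W = Nat.card {x : V // g • x = x} := rfl
  refine ⟨Nat.mem_divisors.2 ⟨h1 ▸ hV ▸ W.card_addSubgroup_dvd_card, by norm_num⟩, ?_, fun h => ?_⟩
  · have h2 := (isPGroup_zpowers hg).card_modEq_card_fixedPoints V
    rw [hV] at h2
    refine Nat.ModEq.trans (modEq_of_eq (Nat.card_congr (Equiv.subtypeEquivRight fun x => ?_))) h2.symm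
    refine ⟨fun hx k => ?_, fun hx => hx ⟨g, mem_zpowers g⟩⟩
    obtain ⟨k, hk⟩ := k
    obtain ⟨n, rfl⟩ := mem_zpowers_iff.1 hk
    exact (mem_stabilizer_iff.1 (zpow_mem (mem_stabilizer_iff.2 hx : g ∈ stabilizer G x) n))
  · have h2 : g = 1 := by
      refine FaithfulSMul.eq_of_smul_eq_smul fun x : V => ?_
      have h3 : W = ⊤ := AddSubgroup.eq_top_of_card_eq W (by rw [h1, h, hV])
      have h4 : x ∈ W := h3 ▸ AddSubgroup.mem_top x
      rw [one_smul]
      exact h4
    rw [h2, orderOf_one] at hg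
    exact hp.out.ne_one hg.symm

theorem card_orbit_mul {K X : Type*} [Group K] [MulAction K X] (x : X) :
    Nat.card (orbit K x) * Nat.card (stabilizer K x) = Nat.card K := by
  rw [← Subgroup.card_mul_index (stabilizer K x), index_stabilizer, ← Nat.card_coe_set_eq, mul_comm]

/-- An element of prime order without fixed points in an orbit makes its size a multiple of the prime. -/
theorem dvd_card_orbit {p : ℕ} [Fact p.Prime] {K : Subgroup G} {g : G} (hgK : g ∈ K)
    (hg : orderOf g = p) {X : Type*} [MulAction G X] [Finite X] (x : X)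
    (h : ∀ y ∈ orbit K x, g • y ≠ y) : p ∣ Nat.card (orbit K x) := by
  have hg' : orderOf (⟨g, hgK⟩ : K) = p := by rw [← hg]; exact Subgroup.orderOf_mk g hgK
  have h2 := (IsPGroup.of_card (p := p) (n := 1) (G := zpowers (⟨g, hgK⟩ : K))
    (by rw [Nat.card_zpowers, hg', pow_one])).card_modEq_card_fixedPoints (orbit K x)
  refine Nat.modEq_zero_iff_dvd.1 (h2.trans (modEq_of_eq ?_))
  refine Nat.card_eq_zero.2 (Or.inl ⟨fun y => h y.1.1 y.1.2 ?_⟩)
  exact congrArg Subtype.val (y.2 ⟨⟨g, hgK⟩, mem_zpowers _⟩)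

theorem even_card_of_involutive {X : Type*} [Finite X] (s : X → X) (hs : ∀ x, s (s x) = x)
    (hne : ∀ x, s x ≠ x) : 2 ∣ Nat.card X := by
  classical
  haveI := Fintype.ofFinite X
  haveI : Fact (Nat.Prime 2) := ⟨Nat.prime_two⟩
  rw [Nat.card_eq_fintype_card]
  refine Nat.modEq_zero_iff_dvd.1 ?_
  have h := Equiv.Perm.card_fixedPoints_modEq (f := (s : Function.End X)) (p := 2) (n := 1)
    (funext fun x => hs x)
  refine h.trans (modEq_of_eq ?_)
  exact Fintype.card_eq_zero_iff.2 ⟨fun x => hne x.1 x.2⟩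

theorem pair_transitive [IsSimpleGroup G] (hG : Nat.card G = 2520) (hV : Nat.card V = 16)
    {v w v' w' : V} (hv : v ≠ 0) (hw : w ≠ 0) (hvw : v ≠ w) (hv' : v' ≠ 0) (hw' : w' ≠ 0)
    (hvw' : v' ≠ w') : ∃ g : G, g • v = v' ∧ g • w = w' := by
  classical
  haveI : Fact (Nat.Prime 5) := ⟨by norm_num⟩
  haveI : Fact (Nat.Prime 7) := ⟨by norm_num⟩
  haveI : Fact (Nat.Prime 2) := ⟨Nat.prime_two⟩
  have hne0 : ∀ (g : G) (x : V), x ≠ 0 → g • x ≠ 0 := fun g x hx h => hx (by
    simpa using congrArg (g⁻¹ • ·) h)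
  -- transitivity
  obtain ⟨a, ha⟩ := exists_prime_orderOf_dvd_card' (G := G) 5 (by rw [hG]; norm_num)
  have hfa : ∀ x : V, x ≠ 0 → a • x ≠ x := by
    intro x hx hax
    obtain ⟨hd, hm, h16⟩ := card_fixed ha hV
    have h2 : 2 ≤ Nat.card {x : V // a • x = x} := by
      have : Nontrivial {x : V // a • x = x} :=
        ⟨⟨x, hax⟩, ⟨0, smul_zero a⟩, fun h => hx (congrArg Subtype.val h)⟩
      exact Finite.one_lt_card
    generalize Nat.card {x : V // a • x = x} = d at hd hm h16 h2
    rw [show Nat.divisors 16 = {1, 2, 4, 8, 16} from by decide] at hd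
    simp only [Finset.mem_insert, Finset.mem_singleton] at hd
    rcases hd with rfl | rfl | rfl | rfl | rfl <;> simp_all [Nat.ModEq]
  have h5 : ∀ x : V, x ≠ 0 → 5 ∣ Nat.card (orbit G x) := by
    intro x hx
    have := dvd_card_orbit (K := (⊤ : Subgroup G)) (g := a) (mem_top a) ha x fun y hy => hfa y ?_
    · convert this using 1
      exact congrArg (fun s : Set V => Nat.card s) (Set.ext fun y =>
        ⟨fun ⟨g, h⟩ => ⟨⟨g, mem_top g⟩, h⟩, fun ⟨g, h⟩ => ⟨g.1, h⟩⟩)
    · obtain ⟨g, rfl⟩ := hy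
      exact hne0 g.1 x hx
  have hcard0 : ∀ T : Set V, (0 : V) ∉ T → T.ncard ≤ 15 := by
    intro T hT
    have h := Set.ncard_le_ncard (show T ⊆ ({0} : Set V)ᶜ from fun t ht h0 => hT (h0 ▸ ht))
      (Set.toFinite _)
    rw [Set.ncard_compl, Set.ncard_singleton, hV] at h
    exact h
  have hor0 : ∀ x : V, x ≠ 0 → (0 : V) ∉ orbit G x := by
    rintro x hx ⟨g, h⟩
    exact hne0 g x hx h
  have hne5 : ∀ x : V, x ≠ 0 → Nat.card (orbit G x) ≠ 5 := by
    intro x hx h
    have hker : (MulAction.toPermHom G (orbit G x)).ker = ⊤ := by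
      rcases IsSimpleGroup.eq_bot_or_eq_top_of_normal _
        (inferInstance : (MulAction.toPermHom G (orbit G x)).ker.Normal) with hk | hk
      · have := Nat.card_le_card_of_injective _ ((MonoidHom.ker_eq_bot_iff _).1 hk)
        rw [hG, Nat.card_perm, h] at this
        norm_num [Nat.factorial] at this
      · exact hk
    have ha1 : MulAction.toPermHom G (orbit G x) a = 1 := by
      rw [← MonoidHom.mem_ker, hker]
      exact mem_top a
    have hfix : a • x = x :=
      congrArg Subtype.val (Equiv.ext_iff.1 ha1 (⟨x, mem_orbit_self x⟩ : orbit G x))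
    exact hfa x hx hfix
  have htrans : ∀ x y : V, x ≠ 0 → y ≠ 0 → y ∈ orbit G x := by
    intro x y hx hy
    by_contra hxy
    have hdis : Disjoint (orbit G x) (orbit G y) := Set.disjoint_left.2 fun z h1 h2 => hxy (by
      rw [← orbit_eq_iff.2 h1, orbit_eq_iff.2 h2]
      exact mem_orbit_self y)
    have h := hcard0 (orbit G x ∪ orbit G y) (by
      rintro (h | h)
      exacts [hor0 x hx h, hor0 y hy h])
    rw [Set.ncard_union_eq hdis (Set.toFinite _) (Set.toFinite _),
      ← Nat.card_coe_set_eq, ← Nat.card_coe_set_eq] at h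
    obtain ⟨i, hi⟩ := h5 x hx
    obtain ⟨j, hj⟩ := h5 y hy
    have := hne5 x hx
    have := hne5 y hy
    have : 0 < Nat.card (orbit G x) := Finite.card_pos_iff.2 ⟨⟨x, mem_orbit_self x⟩⟩
    have : 0 < Nat.card (orbit G y) := Finite.card_pos_iff.2 ⟨⟨y, mem_orbit_self y⟩⟩
    omega
  -- the stabiliser of a point
  have horb : ∀ x : V, x ≠ 0 → Nat.card (orbit G x) = 15 := by
    intro x hx
    rw [show orbit G x = ({0} : Set V)ᶜ from Set.Subset.antisymm
      (fun y hy h0 => hor0 x hx ((Set.mem_singleton_iff.1 h0) ▸ hy)) fun y hy => htrans x y hx hy,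
      Nat.card_coe_set_eq, Set.ncard_compl, Set.ncard_singleton, hV]
  have hstab : Nat.card (stabilizer G v) = 168 := by
    have h := card_orbit_mul (K := G) v
    rw [horb v hv, hG] at h
    omega
  obtain ⟨b, hb⟩ := exists_prime_orderOf_dvd_card' (G := stabilizer G v) 7 (by rw [hstab]; norm_num)
  have hb' : orderOf (b : G) = 7 := by rw [Subgroup.orderOf_coe, hb]
  have hfb : ∀ x : V, x ≠ 0 → x ≠ v → (b : G) • x ≠ x := by
    intro x hx hxv hbx
    obtain ⟨hd, hm, h16⟩ := card_fixed hb' hV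
    have h3 : 3 ≤ Nat.card {x : V // (b : G) • x = x} := by
      have h := Set.ncard_le_ncard (show ({0, v, x} : Set V) ⊆ {y | (b : G) • y = y} by
        rintro y (rfl | rfl | rfl)
        exacts [smul_zero _, b.2, hbx]) (Set.toFinite _)
      rw [Set.ncard_insert_of_notMem (by simp [hv.symm, Ne.symm hx]) (Set.toFinite _),
        Set.ncard_pair hxv.symm] at h
      rw [← Nat.card_coe_set_eq] at h
      exact h
    generalize Nat.card {x : V // (b : G) • x = x} = d at hd hm h16 h3
    rw [show Nat.divisors 16 = {1, 2, 4, 8, 16} from by decide] at hd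
    simp only [Finset.mem_insert, Finset.mem_singleton] at hd
    rcases hd with rfl | rfl | rfl | rfl | rfl <;> simp_all [Nat.ModEq]
  -- an involution gives a self-paired suborbit
  obtain ⟨t, ht⟩ := exists_prime_orderOf_dvd_card' (G := G) 2 (by rw [hG]; norm_num)
  obtain ⟨x, hx⟩ : ∃ x : V, t • x ≠ x := by
    by_contra hc
    push Not at hc
    have : t = 1 := FaithfulSMul.eq_of_smul_eq_smul fun x : V => by rw [hc, one_smul]
    rw [this, orderOf_one] at ht
    omega
  have hx0 : x ≠ 0 := fun h => hx (by rw [h, smul_zero])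
  obtain ⟨g, hg⟩ := htrans x v hx0 hv
  have hg' : g • x = v := hg
  set w0 := g • t • x with hw0
  have hw00 : w0 ≠ 0 := hne0 g _ (hne0 t x hx0)
  have hw0v : w0 ≠ v := by
    rw [← hg', hw0]
    exact fun h => hx (smul_left_cancel g h)
  have htt : t * t = 1 := by rw [← pow_two, ← ht, pow_orderOf_eq_one]
  have hswap : (w0, v) ∈ orbit G (v, w0) := by
    refine ⟨g * t * g⁻¹, ?_⟩
    simp only [Prod.smul_mk, Prod.mk.injEq]
    rw [← hg', hw0]
    refine ⟨by simp [mul_smul], ?_⟩
    simp only [← mul_smul]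
    rw [show g * t * g⁻¹ * (g * t) = g * (t * t) by group, htt, mul_one]
  have heven : 2 ∣ Nat.card (orbit G (v, w0)) := by
    refine even_card_of_involutive (fun y => ⟨(y.1.2, y.1.1), ?_⟩) (fun y => rfl) fun y h => ?_
    · obtain ⟨k, hk⟩ := y.2
      obtain ⟨l, hl⟩ := hswap
      refine ⟨k * l, ?_⟩
      simp only [Prod.smul_mk, Prod.ext_iff] at hk hl ⊢
      rw [mul_smul, mul_smul, hl.1, hl.2]
      exact ⟨hk.2, hk.1⟩
    · obtain ⟨k, hk⟩ := y.2
      have h1 : y.1.2 = y.1.1 := congrArg Prod.fst (congrArg Subtype.val h)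
      rw [← hk] at h1
      exact hw0v (smul_left_cancel k h1)
  have hS0 : ∀ z, z ≠ 0 → z ≠ v → ∀ y ∈ orbit (stabilizer G v) z, y ≠ 0 ∧ y ≠ v := by
    rintro z hz hzv y ⟨k, rfl⟩
    refine ⟨hne0 k.1 z hz, fun h => hzv (smul_left_cancel k.1 ?_)⟩
    rw [show k.1 • v = v from k.2]
    exact h
  have h7 : 7 ∣ Nat.card (orbit (stabilizer G v) w0) :=
    dvd_card_orbit b.2 hb' w0 fun y hy =>
      hfb y (hS0 w0 hw00 hw0v y hy).1 (hS0 w0 hw00 hw0v y hy).2
  have hle : Nat.card (orbit (stabilizer G v) w0) ≤ 14 := by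
    have h := Set.ncard_le_ncard (show orbit (stabilizer G v) w0 ⊆ ({0, v} : Set V)ᶜ from
      fun y hy h => by
        obtain ⟨h1, h2⟩ := hS0 w0 hw00 hw0v y hy
        rcases h with h | h
        exacts [h1 h, h2 h]) (Set.toFinite _)
    rw [Set.ncard_compl, Set.ncard_pair hv.symm, hV] at h
    rwa [Nat.card_coe_set_eq]
  have hk : Nat.card (orbit G (v, w0)) = 15 * Nat.card (orbit (stabilizer G v) w0) := by
    have h1 := card_orbit_mul (K := G) (v, w0)
    have h2 := card_orbit_mul (K := stabilizer G v) w0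
    have h3 : Nat.card (stabilizer (stabilizer G v) w0) = Nat.card (stabilizer G (v, w0)) :=
      Nat.card_congr
        { toFun := fun k => ⟨k.1.1, Prod.ext k.1.2 k.2⟩
          invFun := fun k => ⟨⟨k.1, congrArg Prod.fst k.2⟩, congrArg Prod.snd k.2⟩
          left_inv := fun k => rfl
          right_inv := fun k => rfl }
    rw [hstab, h3] at h2
    rw [hG] at h1
    have hpos : 0 < Nat.card (stabilizer G (v, w0)) := Nat.card_pos
    nlinarith
  have h14 : orbit (stabilizer G v) w0 = ({0, v} : Set V)ᶜ := by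
    refine Set.eq_of_subset_of_ncard_le (fun y hy h => ?_) ?_ (Set.toFinite _)
    · obtain ⟨h1, h2⟩ := hS0 w0 hw00 hw0v y hy
      rcases h with h | h
      exacts [h1 h, h2 h]
    · rw [Set.ncard_compl, Set.ncard_pair hv.symm, hV, ← Nat.card_coe_set_eq]
      have : 0 < Nat.card (orbit (stabilizer G v) w0) := Finite.card_pos_iff.2 ⟨⟨w0, mem_orbit_self w0⟩⟩
      omega
  -- conclusion
  have hto : ∀ p q : V, p ≠ 0 → q ≠ 0 → p ≠ q → ∃ k : G, k • p = v ∧ k • q = w0 := by
    intro p q hp hq hpq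
    obtain ⟨k, hk'⟩ := htrans p v hp hv
    have hk'' : k • p = v := hk'
    have h1 : k • q ∈ orbit (stabilizer G v) w0 := by
      rw [h14]
      rintro (h | h)
      · exact hne0 k q hq h
      · exact hpq (smul_left_cancel k (hk''.trans (Set.mem_singleton_iff.1 h).symm))
    obtain ⟨s, hs⟩ := h1
    refine ⟨(s : G)⁻¹ * k, ?_, ?_⟩
    · rw [mul_smul, hk'', inv_smul_eq_iff]
      exact s.2.symm
    · rw [mul_smul, inv_smul_eq_iff]
      exact hs.symm
  obtain ⟨k, hk1, hk2⟩ := hto v w hv hw hvw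
  obtain ⟨l, hl1, hl2⟩ := hto v' w' hv' hw' hvw'
  exact ⟨l⁻¹ * k, by rw [mul_smul, hk1, inv_smul_eq_iff, hl1],
    by rw [mul_smul, hk2, inv_smul_eq_iff, hl2]⟩

end Cfsg.Agent.SmallPSL.AltSevenFifteen
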